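import Cfsg.Agent.Lib.Steinberg.Gen.PureData.E6
import Cfsg.Agent.Lib.Steinberg.Gen.PureData.E7
import Cfsg.Agent.Lib.Steinberg.Gen.RepData.E6
import Cfsg.Agent.Lib.Steinberg.Gen.RepData.E7
import Cfsg.Agent.Lib.Chevalley.AllEta

/-!
# The Schur multipliers of the Chevalley groups of types `E₆`, `E₇`
-/

set_option autoImplicit false
set_option linter.unusedSectionVars false

namespace Cfsg.Agent.Lib.Steinberg.Gen

open Cfsg Cfsg.Lie Cfsg.Agent.Lib.Steinberg.Cover

universe u

section Main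

variable {D : ChevalleyDatum} {η : ℕ → ℕ → ℤ} {n r₀ a₀ b₀ e a' b' : ℕ} {N₀ N' : ℤ}
  {L : List (ℕ × ℕ × ℕ × ℕ × ℕ)} {covL bfs : List (ℕ × ℕ)} {m j₀ d : ℕ} {tb : ℕ → Sp}
  {w : ℕ → ℤ} {b : ℕ → ℕ → ℤ} {a : ℕ → ℤ}

/-- The facts of the representation. -/
theorem repFacts_of_data {K : Type*} [Field K] (T : PureTbl D n r₀ a₀ b₀ e a' b' 0 N₀ N' L covL bfs)
    (hbase : baseChk D n m r₀ tb = true)
    (hconj : ∀ i < D.rank, ∃ U V, conjChk D n m i tb U V (η i) = true) (dat : Dat D K η) :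
    RepFacts K D m tb := by
  have hn := T.hn
  subst hn
  have hneg : ∀ a < D.nroots, D.neg a = D.nroots - 1 - a := dat.hT3.neg_eq
  have hS : Shp D := Shp_of_shC rfl hneg T.hsh T.hsym
  have hr0 : r₀ < D.nroots := (puC_sound (ce := D.chainEntry) (fun _ _ => rfl) rfl hneg T.hp).2.2.1
  exact repFacts_of_tables dat.cover rfl hneg hS hr0 hbase hconj T.hbfs

/-- The kernel of the map from the group presented by (R1), (R2), for any context with (R3). -/
theorem ker_equiv_of_data {K : Type*} [Field K] {Δ : Type*} [Group Δ] (T : PureTbl D n r₀ a₀ b₀ e a' b' 0 N₀ N' L covL bfs)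
    (hbase : baseChk D n m r₀ tb = true)
    (hconj : ∀ i < D.rank, ∃ U V, conjChk D n m i tb U V (η i) = true)
    (hW0 : hwChk D m tb j₀ = true) (CF : CenFacts D d j₀ w b a) (dat : Dat D K η)
    (C : Ctx D K η Δ) (h3 : C.HasR3) (ρ : Δ →* GL (Fin m) K)
    (hρ : ∀ hF : RepFacts K D m tb, ∀ r t, ρ (C.Y.y r t) = repY K hF r t) :
    Nonempty (C.θG.ker ≃* Mu K d) := by
  have hF := repFacts_of_data T hbase hconj dat
  have hn := T.hn
  subst hn
  have hcol : ∀ r < D.nroots, ∀ a ∈ tb r, a.2.1 < m := by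
    intro r hr a ha
    simp only [baseChk, Bool.and_eq_true, List.all_eq_true, List.mem_range] at hbase
    exact Nat.le_of_ble_eq_true ((hbase.1 r hr).1 a ha)
  have hW := hwFacts_of_chk C.hT hcol hW0
  exact C.ker_equiv_mu h3 CF hF hW ρ (hρ hF)

theorem mu_card {F : Type*} [Field F] [Fintype F] {q : ℕ} (hq : Fintype.card F = q) (d : ℕ) :
    Nat.card (Mu F d) = Nat.gcd d (q - 1) := by
  classical
  rw [Mu, IsCyclic.card_powMonoidHom_ker, Nat.card_eq_fintype_card, Fintype.card_units, hq, Nat.gcd_comm]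

/-- The Schur multiplier from the tables. -/
theorem mult_of_tables (hD : D ∈ [chevG2, chevB2, chevD4, chevF4, chevE6, chevE7, chevE8])
    (hD' : D ∈ [chevB2, chevG2] → False)
    (hη : ∀ i < D.rank, η i (D.simple i) = -1)
    (T : PureTbl D n r₀ a₀ b₀ e a' b' 0 N₀ N' L covL bfs)
    (hbase : baseChk D n m r₀ tb = true)
    (hconj : ∀ i < D.rank, ∃ U V, conjChk D n m i tb U V (η i) = true)
    (hW0 : hwChk D m tb j₀ = true) (CF : CenFacts D d j₀ w b a)
    {F : Type u} [Field F] [Fintype F] {q : ℕ} (hq : Fintype.card F = q) (dat : Dat D F η) :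
    HasCyclicSchurMultiplier ↥(D.group F) (Nat.gcd d (q - 1)) := by
  have hF := repFacts_of_data T hbase hconj dat
  have h3 : dat.cover.HasR3 := dat.cover.hasR3_of_finite (Cfsg.Agent.Lib.Chevalley.AllEta.cartan_self _ hD) hη
  obtain ⟨ek⟩ := ker_equiv_of_data T hbase hconj hW0 CF dat dat.cover h3 (repHom F hF)
    (fun hF' r t => repHom_gen F hF r t)
  have hp : commutator (D.SteinbergCover F) = ⊤ :=
    perfect_ctx hD (fun h => (hD' h).elim) dat.cover
  haveI : Finite (dat.cover.θG.ker) := Finite.of_equiv _ ek.symm.toEquiv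
  haveI : Finite (D.SteinbergCover F ⧸ dat.cover.θG.ker) :=
    Finite.of_equiv _ (QuotientGroup.quotientKerEquivOfSurjective _ dat.cover.θG_surj).symm.toEquiv
  haveI : Finite (D.SteinbergCover F) := Finite.of_subgroup_quotient dat.cover.θG.ker
  have hstem : IsStemExtension dat.cover.θG :=
    ⟨dat.cover.θG_surj, dat.cover.ker_le_center, by rw [hp]; exact le_top⟩
  have huniv := huniv_of_lift dat hp (fun Γ _ _ σ hs hc => exists_hom T dat σ hs hc (fun s hs' => by simp at hs'))
  have e2 : Multiplicative (ZMod (Nat.card (Mu F d))) ≃* Mu F d := zmodCyclicMulEquiv inferInstance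
  rw [mu_card hq] at e2
  exact hasSchurMultiplier_of_universal dat.cover.θG hstem hp huniv (ek.trans e2.symm)

/-- The order of the centre of the group presented by (R1), (R2), (R3), from the tables. -/
theorem center_card_of_tables (hD : D ∈ [chevG2, chevB2, chevD4, chevF4, chevE6, chevE7, chevE8])
    (hη : ∀ i < D.rank, η i (D.simple i) = -1)
    (T : PureTbl D n r₀ a₀ b₀ e a' b' 0 N₀ N' L covL bfs)
    (hbase : baseChk D n m r₀ tb = true)
    (hconj : ∀ i < D.rank, ∃ U V, conjChk D n m i tb U V (η i) = true)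
    (hW0 : hwChk D m tb j₀ = true) (CF : CenFacts D d j₀ w b a)
    {F : Type u} [Field F] [Fintype F] {q : ℕ} (hq : Fintype.card F = q) (dat : Dat D F η) :
    Nat.card (Subgroup.center (D.SteinbergGroup F)) = Nat.gcd d (q - 1) := by
  have hF := repFacts_of_data T hbase hconj dat
  have h3 : dat.cover.HasR3 := dat.cover.hasR3_of_finite (Cfsg.Agent.Lib.Chevalley.AllEta.cartan_self _ hD) hη
  obtain ⟨e', he'⟩ := equiv_of_R3 (dat.rels_of_R3 h3)
  obtain ⟨ek⟩ := ker_equiv_of_data T hbase hconj hW0 CF dat dat.stein dat.stein_hasR3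
    ((repHom F hF).comp e'.symm.toMonoidHom) (fun hF' r t => by
      show repHom F hF (e'.symm (D.stGen F r t)) = _
      rw [← he', MulEquiv.symm_apply_apply, repHom_gen])
  rw [dat.stein.ker_θG_eq] at ek
  rw [Nat.card_congr ek.toEquiv, mu_card hq]

end Main

theorem datE6 (K : Type*) [Field K] : Dat chevE6 K (Cfsg.Agent.Lib.Chevalley.SysOf.etaOf Cfsg.Agent.Lib.Chevalley.Tbl.E6.wT) :=
  ⟨Cfsg.Agent.Lib.Chevalley.Tbl.E6.sys, Cfsg.Agent.Lib.ChevBN.FastData.tbl_of_mem (by simp),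
    Cfsg.Agent.Lib.ChevBN.FastData.tbl2_of_mem (by simp), tbl3_of_mem (by simp),
    Cfsg.Agent.Lib.Chevalley.All.comm_all _ (by simp)⟩

theorem datE7 (K : Type*) [Field K] : Dat chevE7 K (Cfsg.Agent.Lib.Chevalley.SysOf.etaOf Cfsg.Agent.Lib.Chevalley.Tbl.E7.wT) :=
  ⟨Cfsg.Agent.Lib.Chevalley.Tbl.E7.sys, Cfsg.Agent.Lib.ChevBN.FastData.tbl_of_mem (by simp),
    Cfsg.Agent.Lib.ChevBN.FastData.tbl2_of_mem (by simp), tbl3_of_mem (by simp),
    Cfsg.Agent.Lib.Chevalley.All.comm_all _ (by simp)⟩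

theorem multiplierE6 {F : Type u} [Field F] [Fintype F] {q : ℕ} (hF : Fintype.card F = q) :
    HasCyclicSchurMultiplier ↥(chevE6.group F) (Nat.gcd 3 (q - 1)) :=
  mult_of_tables (by simp) (fun h => by
      simp only [List.mem_cons, List.not_mem_nil, or_false] at h
      rcases h with h | h <;> exact absurd (congrArg ChevalleyDatum.rank h) (by decide)) (fun i hi => Cfsg.Agent.Lib.Chevalley.NForm.eta_simple_of_check _
      Cfsg.Agent.Lib.Chevalley.Tbl.E6.nform_check hi) PureData.E6.tbl RepData.E6.c1 RepData.E6.conj_all RepData.E6.c2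
    RepData.E6.c3 hF (datE6 F)

theorem multiplierE7 {F : Type u} [Field F] [Fintype F] {q : ℕ} (hF : Fintype.card F = q) :
    HasCyclicSchurMultiplier ↥(chevE7.group F) (Nat.gcd 2 (q - 1)) :=
  mult_of_tables (by simp) (fun h => by
      simp only [List.mem_cons, List.not_mem_nil, or_false] at h
      rcases h with h | h <;> exact absurd (congrArg ChevalleyDatum.rank h) (by decide)) (fun i hi => Cfsg.Agent.Lib.Chevalley.NForm.eta_simple_of_check _
      Cfsg.Agent.Lib.Chevalley.Tbl.E7.nform_check hi) PureData.E7.tbl RepData.E7.c1 RepData.E7.conj_all RepData.E7.c2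
    RepData.E7.c3 hF (datE7 F)

theorem centerE6 {F : Type u} [Field F] [Fintype F] {q : ℕ} (hF : Fintype.card F = q) :
    Nat.card (Subgroup.center (chevE6.SteinbergGroup F)) = Nat.gcd 3 (q - 1) :=
  center_card_of_tables (by simp) (fun i hi => Cfsg.Agent.Lib.Chevalley.NForm.eta_simple_of_check _
      Cfsg.Agent.Lib.Chevalley.Tbl.E6.nform_check hi) PureData.E6.tbl RepData.E6.c1 RepData.E6.conj_all RepData.E6.c2
    RepData.E6.c3 hF (datE6 F)

theorem centerE7 {F : Type u} [Field F] [Fintype F] {q : ℕ} (hF : Fintype.card F = q) :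
    Nat.card (Subgroup.center (chevE7.SteinbergGroup F)) = Nat.gcd 2 (q - 1) :=
  center_card_of_tables (by simp) (fun i hi => Cfsg.Agent.Lib.Chevalley.NForm.eta_simple_of_check _
      Cfsg.Agent.Lib.Chevalley.Tbl.E7.nform_check hi) PureData.E7.tbl RepData.E7.c1 RepData.E7.conj_all RepData.E7.c2
    RepData.E7.c3 hF (datE7 F)

end Cfsg.Agent.Lib.Steinberg.Gen
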