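import Cfsg.Agent.Lib.Steinberg.Gen.TData.D4b
import Cfsg.Agent.Lib.Steinberg.Gen.MultB2

/-!
# The lifting for the type `D₄`
-/

set_option autoImplicit false
set_option linter.unusedSectionVars false

namespace Cfsg.Agent.Lib.Steinberg.Gen

open Cfsg Cfsg.Lie Cfsg.Agent.Lib.ChevBN.Table Cfsg.Agent.Lib.ChevBN.Rel Cfsg.Agent.Lib.ChevBN.Torus
open Cfsg.Agent.Lib.ChevBN.Collect
open Cfsg.Agent.Lib.Sporadic.Stem Cfsg.Agent.Lib.Steinberg.Lift

universe u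

variable {K : Type*} [Field K] {η : ℕ → ℕ → ℤ} {Δ Γ : Type*} [Group Δ] [Group Γ]

/-- The lifted family for the type `D₄`. -/
theorem exists_LD_D4 (C : Ctx chevD4 K η Δ) {κ : K} (hκ : κ ≠ 0) (h1 : κ ≠ 1)
    (σ : Γ →* ↥(chevD4.group K)) (hσ : Function.Surjective σ) (hc : σ.ker ≤ Subgroup.center Γ) :
    Nonempty (LD C σ) := by
  have hneg : ∀ a < 24, chevD4.neg a = 24 - 1 - a := C.hT3.neg_eq
  exact exists_LD C hσ hc
    (fun r hr => by
      obtain ⟨c, hc0, hc1⟩ := exists_unit_scale TData.D4.hn TData.D4.c1 hr κ hκ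
      exact ⟨c, hc0, by rwa [hc1]⟩)
    (fun r hr => by
      obtain ⟨a, b, N, h1, h2, h3⟩ := cTChk_sound TData.D4.hn hneg TData.D4.c4 hr
      exact Cm_of_extra C.Zf σ hc (fun _ _ _ => hσ _) h1 h2 h3)

/-- The lifting for the type `D₄`, when the torus is large enough. -/
theorem exists_hom_D4 (d : Dat chevD4 K η) {κ : K} (hκ : κ ≠ 0) (hκ2 : κ ^ 2 ≠ 1)
    (σ : Γ →* ↥(chevD4.group K)) (hσ : Function.Surjective σ) (hc : σ.ker ≤ Subgroup.center Γ) :
    ∃ φ : chevD4.SteinbergCover K →* Γ, ∀ g, σ (φ g) = d.cover.θG g := by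
  have h1 : κ ≠ 1 := by
    rintro rfl
    simp at hκ2
  obtain ⟨T⟩ := exists_LD_D4 d.cover hκ h1 σ hσ hc
  refine exists_hom_of_LD d T hσ hc ?_ (wordChk_sound TData.D4.hn TData.D4.c3)
  intro m s hm hs hms
  left
  rcases sepChk_sound TData.D4.hn TData.D4.c2 hm hs hms with h | h
  · simp at h
  · exact sep_of_vec hκ (hE_of_sq hκ2) h

end Cfsg.Agent.Lib.Steinberg.Gen
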