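import Cfsg.Agent.Lib.Steinberg.Gen.MultD4
import Cfsg.Agent.Lib.Steinberg.Gen.TData.D4c

/-!
# The lifting for the type `D₄` over the field with three elements
-/

set_option autoImplicit false
set_option linter.unusedSectionVars false

namespace Cfsg.Agent.Lib.Steinberg.Gen

open Cfsg Cfsg.Lie Cfsg.Agent.Lib.ChevBN.Table Cfsg.Agent.Lib.ChevBN.Rel Cfsg.Agent.Lib.ChevBN.Torus
open Cfsg.Agent.Lib.ChevBN.Collect
open Cfsg.Agent.Lib.Sporadic.Stem Cfsg.Agent.Lib.Steinberg.Lift Cfsg.Agent.Lib.Chevalley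

variable {K : Type*} [Field K] {Δ Γ : Type*} [Group Δ] [Group Γ]

theorem datD4 (K : Type*) [Field K] : Dat chevD4 K (SysOf.etaOf Tbl.D4.wT) :=
  ⟨Tbl.D4.sys, Cfsg.Agent.Lib.ChevBN.FastData.tbl_of_mem (by simp),
    Cfsg.Agent.Lib.ChevBN.FastData.tbl2_of_mem (by simp), tbl3_of_mem (by simp),
    All.comm_all _ (by simp)⟩

/-- The lifting for the type `D₄`, over the field with three elements. -/
theorem exists_hom_D4_F3 (d : Dat chevD4 K (SysOf.etaOf Tbl.D4.wT)) {κ : K} (hκ : κ ≠ 0) (hκ1 : κ ≠ 1)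
    (hsq : ∀ κ : K, κ ≠ 0 → κ ^ 2 = 1)
    (σ : Γ →* ↥(chevD4.group K)) (hσ : Function.Surjective σ) (hc : σ.ker ≤ Subgroup.center Γ) :
    ∃ φ : chevD4.SteinbergCover K →* Γ, ∀ g, σ (φ g) = d.cover.θG g := by
  have hneg : ∀ a < 24, chevD4.neg a = 24 - 1 - a := d.cover.hT3.neg_eq
  obtain ⟨hF3, h3, h2⟩ := f3_of_sq hsq hκ hκ1
  obtain ⟨T⟩ := exists_LD_D4 d.cover hκ hκ1 σ hσ hc
  refine exists_hom_of_LD d T hσ hc ?_ (wordChk_sound TData.D4.hn TData.D4.c3)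
  intro m s hm hs hms
  have hE : ∀ e ∈ ([1, -1] : List ℤ), κ ^ e ≠ 1 := by
    intro e he
    simp only [List.mem_cons, List.not_mem_nil, or_false] at he
    rcases he with rfl | rfl
    · simpa using hκ1
    · simpa [zpow_neg] using hκ1
  rcases sepChk_sound TData.D4.hn TData.D4.c8 hm hs hms with h | h
  · right
    obtain ⟨hnl, l, hl, h5, h6, h7⟩ := swChk_sound TData.D4.hn hneg TData.D4.c7 h
    exact T.good_of_Cm hm.1 hs.1 (d.cover.Cm_of_swap hσ hc hF3 h3 hm.1 hs.1 (Z_nl d.cover.Zf hnl) hl h5 h6 h7)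
  · left
    exact sep_of_vec hκ hE h

end Cfsg.Agent.Lib.Steinberg.Gen
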