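import Cfsg.Agent.Lib.Steinberg.Gen.PureData.E8

/-!
# The Schur multiplier of the Chevalley groups of type `E₈`
-/

set_option autoImplicit false

namespace Cfsg.Agent.Lib.Steinberg.Gen

open Cfsg Cfsg.Lie

universe u

theorem multiplierE8 {F : Type u} [Field F] [Fintype F] : HasCyclicSchurMultiplier ↥(chevE8.group F) 1 := by
  have hD : chevE8 ∈ [chevG2, chevB2, chevD4, chevF4, chevE6, chevE7, chevE8] := by simp
  obtain ⟨η, hη, hd⟩ := exists_dat_eta.{u} chevE8 hD
  have d := hd F
  haveI : Finite (chevE8.Idx) := inferInstance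
  have h3 : d.cover.HasR3 := d.cover.hasR3_of_finite (Cfsg.Agent.Lib.Chevalley.AllEta.cartan_self _ hD) hη
  have hbij : Function.Bijective d.cover.θG := by
    refine ⟨?_, d.cover.θG_surj⟩
    rw [← MonoidHom.ker_eq_bot_iff, eq_bot_iff]
    intro z hz
    exact Ctx.eq_one_of_θ uni_chevE8 h3 (d.cover.ker_θG.mp hz)
  refine multiplier_trivial_of_lift d.cover.θG hbij ?_
  intro Γ _ _ σ hσ
  exact exists_hom PureData.E8.tbl d σ hσ.1 hσ.2.1 (fun s hs => by simp at hs)

end Cfsg.Agent.Lib.Steinberg.Gen
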