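import Cfsg.Agent.Lib.Steinberg.Gen.TData.F4b
import Cfsg.Agent.Lib.Steinberg.Gen.MultG2

/-!
# The Schur multiplier of the Chevalley groups of type `F₄`
-/

set_option autoImplicit false

namespace Cfsg.Agent.Lib.Steinberg.Gen

open Cfsg Cfsg.Lie Cfsg.Agent.Lib.ChevBN.Table

universe u

/-- The lifting for the type `F₄`. -/
theorem exists_hom_F4 {K : Type*} [Field K] {η : ℕ → ℕ → ℤ} (d : Dat chevF4 K η) {Γ : Type*} [Group Γ]
    (hK : ∃ κ : K, κ ≠ 0 ∧ κ ≠ 1)
    (σ : Γ →* ↥(chevF4.group K)) (hσ : Function.Surjective σ) (hc : σ.ker ≤ Subgroup.center Γ) :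
    ∃ φ : chevF4.SteinbergCover K →* Γ, ∀ g, σ (φ g) = d.cover.θG g := by
  have hneg : ∀ a < 48, chevF4.neg a = 48 - 1 - a := d.cover.hT3.neg_eq
  obtain ⟨κ, hκ0, hκ1⟩ := hK
  obtain ⟨T⟩ := exists_LD d.cover hσ hc
    (fun r hr => by
      obtain ⟨c, hc0, hc1⟩ := exists_unit_scale TData.F4.hn TData.F4.c1 hr κ hκ0
      exact ⟨c, hc0, by rwa [hc1]⟩)
    (fun r hr => by
      obtain ⟨a, b, N, h1, h2, h3⟩ := cTChk_sound TData.F4.hn hneg TData.F4.c4 hr
      exact Cm_of_extra d.cover.Zf σ hc (fun _ _ _ => hσ _) h1 h2 h3)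
  refine exists_hom_of_LD d T hσ hc ?_ (wordChk_sound TData.F4.hn TData.F4.c3)
  intro m s hm hs hms
  by_cases h2 : ∃ κ : K, κ ≠ 0 ∧ κ ^ 2 ≠ 1
  · left
    obtain ⟨κ, hκ, hκ2⟩ := h2
    have hκ1 : κ ≠ 1 := by
      rintro rfl
      simp at hκ2
    have hE : ∀ e ∈ ([1, -1, 2, -2] : List ℤ), κ ^ e ≠ 1 := by
      intro e he
      simp only [List.mem_cons, List.not_mem_nil, or_false] at he
      rcases he with rfl | rfl | rfl | rfl
      · simpa using hκ1
      · simpa [zpow_neg] using hκ1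
      · exact_mod_cast hκ2
      · simpa [zpow_neg] using hκ2
    rcases sepChk_sound TData.F4.hn TData.F4.c2 hm hs hms with h | h
    · simp at h
    · exact sep_of_vec hκ hE h
  · push Not at h2
    have hκm : κ = -1 := by
      have h3 := h2 κ hκ0
      have h4 : (κ - 1) * (κ + 1) = 0 := by linear_combination h3
      rcases mul_eq_zero.mp h4 with h5 | h5
      · exact absurd (sub_eq_zero.mp h5) hκ1
      · exact eq_neg_of_add_eq_zero_left h5
    have h20 : (2 : K) ≠ 0 := by
      intro h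
      apply hκ1
      rw [hκm]
      linear_combination -h
    have hE : ∀ e ∈ ([1, -1] : List ℤ), κ ^ e ≠ 1 := by
      intro e he
      simp only [List.mem_cons, List.not_mem_nil, or_false] at he
      rcases he with rfl | rfl
      · simpa using hκ1
      · simpa [zpow_neg] using hκ1
    rcases sepChk_sound TData.F4.hn TData.F4.c6 hm hs hms with h | h
    · right
      obtain ⟨hnl, a, b, N, h3, h4, h5, hN⟩ := exTChk_sound TData.F4.hn hneg TData.F4.c5 h
      have hNK : (N : K) ≠ 0 := by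
        rcases hN with rfl | rfl
        · simpa using h20
        · simpa using h20
      exact T.good_of_Cm hm.1 hs.1 (Cm_of_extra' d.cover.Zf σ hσ hc h3 hNK h4 h5)
    · left
      exact sep_of_vec hκ0 hE h

theorem multiplierF4 {F : Type u} [Field F] [Fintype F] (hF : 3 ≤ Fintype.card F) :
    HasCyclicSchurMultiplier ↥(chevF4.group F) 1 := by
  have hD : chevF4 ∈ [chevG2, chevB2, chevD4, chevF4, chevE6, chevE7, chevE8] := by simp
  obtain ⟨η, hη, hd⟩ := exists_dat_eta.{u} chevF4 hD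
  have d := hd F
  haveI : Finite (chevF4.Idx) := inferInstance
  have h3 : d.cover.HasR3 := d.cover.hasR3_of_finite (Cfsg.Agent.Lib.Chevalley.AllEta.cartan_self _ hD) hη
  have hbij : Function.Bijective d.cover.θG := by
    refine ⟨?_, d.cover.θG_surj⟩
    rw [← MonoidHom.ker_eq_bot_iff, eq_bot_iff]
    intro z hz
    exact Ctx.eq_one_of_θ uni_chevF4 h3 (d.cover.ker_θG.mp hz)
  have hK : ∃ κ : F, κ ≠ 0 ∧ κ ≠ 1 := by
    classical
    by_contra h
    push Not at h
    have : Fintype.card F ≤ 2 := by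
      have h1 : (Finset.univ : Finset F) ⊆ {0, 1} := by
        intro x _
        by_cases hx : x = 0
        · simp [hx]
        · simp [h x hx]
      have h2 := Finset.card_le_card h1
      rw [Finset.card_univ] at h2
      exact h2.trans Finset.card_le_two
    omega
  refine multiplier_trivial_of_lift d.cover.θG hbij ?_
  intro Γ _ _ σ hσ
  exact exists_hom_F4 d hK σ hσ.1 hσ.2.1

end Cfsg.Agent.Lib.Steinberg.Gen
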