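import Cfsg.Agent.Lib.Steinberg.Gen.MultB2b
import Cfsg.Agent.Lib.Steinberg.Gen.MultD4b
import Cfsg.Agent.Lib.Steinberg.Gen.MultE67

/-!
# The Schur multiplier of the group presented by (R1), (R2), (R3)
-/

set_option autoImplicit false
set_option linter.unusedSectionVars false

namespace Cfsg.Agent.Lib.Steinberg.Gen

open Cfsg Cfsg.Lie Cfsg.Agent.Lib.Chevalley

universe u

/-- The group presented by (R1), (R2) is finite, when the relation (R3) holds over a finite field. -/
theorem finite_cover {D : ChevalleyDatum} {F : Type u} [Field F] [Fintype F] {η : ℕ → ℕ → ℤ} (d : Dat D F η)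
    (h3 : d.cover.HasR3) [Finite D.Idx] : Finite (D.SteinbergCover F) := by
  classical
  let ext : (Fin D.rank → F) → (ℕ → F) := fun f j => if h : j < D.rank then f ⟨j, h⟩ else 1
  have hmem : ∀ x : d.cover.θG.ker, ∃ f : Fin D.rank → F, (x : D.SteinbergCover F) = d.cover.hprod (ext f) := by
    rintro ⟨x, hx⟩
    obtain ⟨c, _, e⟩ := d.cover.exists_hprod h3 (d.cover.ker_le_Hs (d.cover.ker_θG.mp hx))
    refine ⟨fun j => c j, ?_⟩
    show x = _
    rw [e]
    simp only [Ctx.hprod, Ctx.hl]
    congr 1
    apply List.map_congr_left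
    intro j hj
    have hj' : j < D.rank := List.mem_range.mp hj
    simp [ext, hj']
  haveI : Finite (d.cover.θG.ker) := by
    refine Finite.of_surjective (α := {p : (Fin D.rank → F) // d.cover.hprod (ext p) ∈ d.cover.θG.ker})
      (fun p => ⟨d.cover.hprod (ext p.1), p.2⟩) ?_
    intro x
    obtain ⟨f, hf⟩ := hmem x
    refine ⟨⟨f, by rw [← hf]; exact x.2⟩, Subtype.ext hf.symm⟩
  haveI : Finite (D.SteinbergCover F ⧸ d.cover.θG.ker) :=
    Finite.of_equiv _ (QuotientGroup.quotientKerEquivOfSurjective _ d.cover.θG_surj).symm.toEquiv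
  exact Finite.of_subgroup_quotient d.cover.θG.ker

/-- The Schur multiplier of the group presented by (R1), (R2), (R3), from the lifting. -/
theorem multiplier_St_of_lift {D : ChevalleyDatum} (hD : D ∈ [chevG2, chevB2, chevD4, chevF4, chevE6, chevE7, chevE8])
    {F : Type u} [Field F] [Fintype F] {η : ℕ → ℕ → ℤ} (hη : ∀ i < D.rank, η i (D.simple i) = -1) (d : Dat D F η)
    (h2 : D ∈ [chevB2, chevG2] → ∃ a : F, a ≠ 0 ∧ a ≠ 1)
    (hlift : ∀ (Γ : Type u) [Group Γ] [Finite Γ] (σ : Γ →* ↥(D.group F)), Function.Surjective σ →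
      σ.ker ≤ Subgroup.center Γ → ∃ φ : D.SteinbergCover F →* Γ, ∀ g, σ (φ g) = d.cover.θG g) :
    HasCyclicSchurMultiplier (D.SteinbergGroup F) 1 := by
  haveI : Finite D.Idx := by
    simp only [List.mem_cons, List.not_mem_nil, or_false] at hD
    rcases hD with rfl | rfl | rfl | rfl | rfl | rfl | rfl <;> infer_instance
  have h3 : d.cover.HasR3 := d.cover.hasR3_of_finite (AllEta.cartan_self _ hD) hη
  obtain ⟨e, _⟩ := equiv_of_R3 (d.rels_of_R3 h3)
  haveI := finite_cover d h3
  haveI : Finite (D.SteinbergGroup F) := Finite.of_equiv _ e.toEquiv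
  have hp : commutator (D.SteinbergCover F) = ⊤ := perfect_ctx hD h2 d.cover
  apply Cfsg.Agent.Lib.Schur.Basic.hasCyclicSchurMultiplier_one_of
  intro Γ _ _ σ hσ
  have hker : (e.symm.toMonoidHom.comp σ).ker = σ.ker := by
    ext x
    simp only [MonoidHom.mem_ker, MonoidHom.comp_apply, MulEquiv.coe_toMonoidHom]
    exact EmbeddingLike.map_eq_one_iff
  have hstem : IsStemExtension (e.symm.toMonoidHom.comp σ) := by
    refine ⟨e.symm.surjective.comp hσ.1, ?_, ?_⟩
    · rw [hker]; exact hσ.2.1
    · rw [hker]; exact hσ.2.2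
  rw [← hker]
  exact huniv_of_lift d hp hlift Γ _ hstem

/-- The Schur multipliers of the groups presented by (R1), (R2), (R3). -/
theorem multiplier_St {K : Type u} [Field K] [Fintype K] (e : ChevalleyDatum × ℕ)
    (he : e ∈ [(chevE6, 0), (chevE7, 0), (chevB2, 2), (chevD4, 2)]) (hK : Fintype.card K ≠ e.2) :
    HasCyclicSchurMultiplier (e.1.SteinbergGroup K) 1 := by
  have hκ : e.2 = 2 → ∃ κ : K, κ ≠ 0 ∧ κ ≠ 1 := by
    intro h2
    classical
    by_contra h
    push Not at h
    have : Fintype.card K ≤ 2 := by
      have h1 : (Finset.univ : Finset K) ⊆ {0, 1} := by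
        intro x _
        by_cases hx : x = 0
        · simp [hx]
        · simp [h x hx]
      have h2 := Finset.card_le_card h1
      rw [Finset.card_univ] at h2
      exact h2.trans Finset.card_le_two
    have h1 : 2 ≤ Fintype.card K := Fintype.one_lt_card
    rw [h2] at hK
    omega
  simp only [List.mem_cons, List.not_mem_nil, or_false] at he
  rcases he with rfl | rfl | rfl | rfl
  · refine multiplier_St_of_lift (by simp) (fun i hi => NForm.eta_simple_of_check _ Tbl.E6.nform_check hi) (datE6 K)
      (fun h => by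
        simp only [List.mem_cons, List.not_mem_nil, or_false] at h
        rcases h with h | h <;> exact absurd (congrArg ChevalleyDatum.rank h) (by decide)) ?_
    intro Γ _ _ σ hs hc
    exact exists_hom PureData.E6.tbl (datE6 K) σ hs hc (fun s hs' => by simp at hs')
  · refine multiplier_St_of_lift (by simp) (fun i hi => NForm.eta_simple_of_check _ Tbl.E7.nform_check hi) (datE7 K)
      (fun h => by
        simp only [List.mem_cons, List.not_mem_nil, or_false] at h
        rcases h with h | h <;> exact absurd (congrArg ChevalleyDatum.rank h) (by decide)) ?_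
    intro Γ _ _ σ hs hc
    exact exists_hom PureData.E7.tbl (datE7 K) σ hs hc (fun s hs' => by simp at hs')
  · obtain ⟨κ, h0, h1⟩ := hκ rfl
    refine multiplier_St_of_lift (by simp) (fun i hi => NForm.eta_simple_of_check _ Tbl.B2.nform_check hi) (datB2 K)
      (fun _ => ⟨κ, h0, h1⟩) ?_
    intro Γ _ _ σ hs hc
    by_cases hsq : ∀ κ : K, κ ≠ 0 → κ ^ 2 = 1
    · exact exists_hom_B2_F3 (datB2 K) h0 h1 hsq σ hs hc
    · push Not at hsq
      obtain ⟨κ', h0', h2'⟩ := hsq
      refine exists_hom_B2 (datB2 K) h0' h2' ?_ σ hs hc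
      by_cases h2 : (2 : K) = 0
      · exact Or.inl h2
      · right
        classical
        apply exists_a_of_card
        refine ⟨{0, 1, -1, κ', -κ'}, ?_⟩
        have h1' : κ' ≠ 1 := by
          rintro rfl
          simp at h2'
        have h3 : κ' ≠ -1 := by
          rintro rfl
          simp at h2'
        have h4 : (1 : K) ≠ -1 := by
          intro h
          apply h2
          linear_combination h
        have h5 : κ' ≠ -κ' := by
          intro h
          apply mul_ne_zero h2 h0'
          linear_combination h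
        have h6 : (1 : K) ≠ -κ' := fun h => h3 (by linear_combination h)
        have h7 : (-1 : K) ≠ -κ' := fun h => h1' (by linear_combination h)
        have h8 : (0 : K) ≠ -κ' := fun h => h0' (by linear_combination h)
        have h9 : (0 : K) ≠ -1 := by simp
        have h10 : (0 : K) ≠ 1 := by simp
        rw [Finset.card_insert_of_notMem (by
              simp only [Finset.mem_insert, Finset.mem_singleton, not_or]
              exact ⟨h10, h9, h0'.symm, h8⟩),
          Finset.card_insert_of_notMem (by
              simp only [Finset.mem_insert, Finset.mem_singleton, not_or]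
              exact ⟨h4, h1'.symm, h6⟩),
          Finset.card_insert_of_notMem (by
              simp only [Finset.mem_insert, Finset.mem_singleton, not_or]
              exact ⟨h3.symm, h7⟩),
          Finset.card_insert_of_notMem (by
              simp only [Finset.mem_singleton]
              exact h5), Finset.card_singleton]
        norm_num
  · obtain ⟨κ, h0, h1⟩ := hκ rfl
    refine multiplier_St_of_lift (by simp) (fun i hi => NForm.eta_simple_of_check _ Tbl.D4.nform_check hi) (datD4 K)
      (fun _ => ⟨κ, h0, h1⟩) ?_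
    intro Γ _ _ σ hs hc
    by_cases hsq : ∀ κ : K, κ ≠ 0 → κ ^ 2 = 1
    · exact exists_hom_D4_F3 (datD4 K) h0 h1 hsq σ hs hc
    · push Not at hsq
      obtain ⟨κ', h0', h2'⟩ := hsq
      exact exists_hom_D4 (datD4 K) h0' h2' σ hs hc

end Cfsg.Agent.Lib.Steinberg.Gen
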