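import Cfsg.Agent.Lib.Steinberg.Gen.Tors
import Cfsg.Agent.Lib.Steinberg.Gen.Perfect
import Cfsg.Agent.Lib.Steinberg.Gen.CoverEq

/-!
# Projective representations in the natural characteristic lift to the group presented by (R1), (R2)

Over the algebraic closure the scalars are uniquely divisible by the characteristic, so the extension given by the
general linear group splits over the group of (R1), (R2).  As this group is perfect, the lift has values
in the general linear group of the original field.
-/

set_option autoImplicit false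
set_option linter.unusedSectionVars false

namespace Cfsg.Agent.Lib.Steinberg.Gen

open Cfsg Cfsg.Lie Cfsg.Agent.Lib.Sporadic.Stem Cfsg.Agent.Lib.Steinberg.Lift
open scoped MatrixGroups commutatorElement
open Matrix

section Uniq

variable {Δ E G : Type*} [Group Δ] [Group E] [Group G]

/-- Lifts from a perfect group through a central extension are unique. -/
theorem lift_eq_of_perfect (hp : commutator Δ = ⊤) (π : E →* G) (hc : π.ker ≤ Subgroup.center E)
    (ψ₁ ψ₂ : Δ →* E) (h : π.comp ψ₁ = π.comp ψ₂) : ψ₁ = ψ₂ := by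
  have hle : commutator Δ ≤ MonoidHom.eqLocus ψ₁ ψ₂ := by
    show ⁅(⊤ : Subgroup Δ), ⊤⁆ ≤ _
    refine Subgroup.commutator_le.mpr ?_
    intro a _ b _
    have ea : π (ψ₁ a) = π (ψ₂ a) := congrArg (fun f : Δ →* G => f a) h
    have eb : π (ψ₁ b) = π (ψ₂ b) := congrArg (fun f : Δ →* G => f b) h
    have := cm_eq_of_map_eq π hc ea eb
    show ψ₁ ⁅a, b⁆ = ψ₂ ⁅a, b⁆
    rw [map_commutatorElement, map_commutatorElement]
    exact this
  ext g
  exact hle (by rw [hp]; trivial)

end Uniq

section Pull

variable {n : ℕ} {L : Type*} [Field L] {M : Type*} [Field M] [Algebra L M]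

/-- The general linear groups. -/
noncomputable abbrev iotaGL : GL (Fin n) L →* GL (Fin n) M := Matrix.GeneralLinearGroup.map (algebraMap L M)

theorem iotaGL_inj : Function.Injective (iotaGL (n := n) (L := L) (M := M)) := by
  intro a b h
  apply Units.ext
  ext i j
  have h1 := congrArg (fun x : GL (Fin n) M => (x : Matrix (Fin n) (Fin n) M) i j) h
  simp only [iotaGL, Matrix.GeneralLinearGroup.map_apply] at h1
  exact (algebraMap L M).injective h1

/-- The projective general linear groups. -/
noncomputable abbrev iotaP :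
    GL (Fin n) L ⧸ Subgroup.center (GL (Fin n) L) →* GL (Fin n) M ⧸ Subgroup.center (GL (Fin n) M) :=
  QuotientGroup.map _ _ (iotaGL (n := n) (L := L) (M := M)) (Matrix.GeneralLinearGroup.map_center_le _)

theorem center_of_iota {g : GL (Fin n) L} (h : iotaGL (M := M) g ∈ Subgroup.center (GL (Fin n) M)) :
    g ∈ Subgroup.center (GL (Fin n) L) := by
  rw [Subgroup.mem_center_iff] at h ⊢
  intro x
  apply iotaGL_inj (M := M)
  rw [map_mul, map_mul, h]

end Pull

section Pow

variable {n : ℕ} {M : Type*} [Field M]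

theorem scalar_root [IsAlgClosed M] {p : ℕ} (hp : 0 < p) {z : GL (Fin n) M} (hz : z ∈ Subgroup.center (GL (Fin n) M)) :
    ∃ w ∈ Subgroup.center (GL (Fin n) M), w ^ p = z := by
  rw [Matrix.GeneralLinearGroup.center_eq_range_scalar] at hz
  obtain ⟨u, rfl⟩ := hz
  obtain ⟨v, hv⟩ := IsAlgClosed.exists_pow_nat_eq (u : M) hp
  have hv0 : v ≠ 0 := by
    rintro rfl
    rw [zero_pow hp.ne'] at hv
    exact u.ne_zero hv.symm
  refine ⟨Matrix.GeneralLinearGroup.scalar (Fin n) (Units.mk0 v hv0), ?_, ?_⟩
  · rw [Matrix.GeneralLinearGroup.center_eq_range_scalar]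
    exact ⟨_, rfl⟩
  · rw [← map_pow]
    congr 1
    apply Units.ext
    simpa using hv

theorem scalar_tors {p : ℕ} [Fact p.Prime] [CharP M p] {z : GL (Fin n) M} (hz : z ∈ Subgroup.center (GL (Fin n) M))
    (h : z ^ p = 1) : z = 1 := by
  rcases Nat.eq_zero_or_pos n with rfl | hn
  · exact Subsingleton.elim _ _
  rw [Matrix.GeneralLinearGroup.center_eq_range_scalar] at hz
  obtain ⟨u, rfl⟩ := hz
  have hu : u ^ p = 1 := by
    rw [← map_pow] at h
    have h1 := congrArg (fun x : GL (Fin n) M => (x : Matrix (Fin n) (Fin n) M) ⟨0, hn⟩ ⟨0, hn⟩) h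
    have e : ((Matrix.GeneralLinearGroup.scalar (Fin n) (u ^ p) : GL (Fin n) M) : Matrix (Fin n) (Fin n) M) =
        Matrix.scalar (Fin n) ((u ^ p : Mˣ) : M) := rfl
    simp only [e] at h1
    apply Units.ext
    simpa [Matrix.scalar_apply] using h1
  have hu1 : u = 1 := by
    apply Units.ext
    have h2 : ((u : M) - 1) ^ p = 0 := by
      rw [sub_pow_char, ← Units.val_pow_eq_pow_val, hu]
      simp
    have h3 := pow_eq_zero_iff (Fact.out : p.Prime).ne_zero |>.mp h2
    simpa [sub_eq_zero] using h3
  rw [hu1, map_one]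

end Pow

universe u

/-- Projective representations in the natural characteristic lift. -/
theorem proj_lift {K : Type u} [Field K] (D : ChevalleyDatum)
    (hD : D ∈ [chevG2, chevB2, chevD4, chevF4, chevE6, chevE7, chevE8])
    (hK : D ∈ [chevB2, chevG2] → ∃ x : K, x ≠ 0 ∧ x ≠ 1)
    (θ : D.SteinbergCover K →* ↥(D.group K))
    (hθ : ∀ (r : ℕ) (t : K), r < D.nroots → ((θ (D.scGen K r t) : GL D.Idx K) : Matrix D.Idx D.Idx K) = D.x K r t)
    {L : Type*} [Field L] (hL : ringChar L = ringChar K) {n : ℕ}
    (φ : ↥(D.group K) →* GL (Fin n) L ⧸ Subgroup.center (GL (Fin n) L)) :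
    ∃! ψ : D.SteinbergCover K →* GL (Fin n) L,
      (QuotientGroup.mk' (Subgroup.center (GL (Fin n) L))).comp ψ = φ.comp θ := by
  classical
  obtain ⟨η, -, hd⟩ := exists_dat_eta.{u} D hD
  have d := hd K
  have hperf : commutator (D.SteinbergCover K) = ⊤ := perfect_ctx hD hK d.cover
  -- the map of the statement is the one of the context
  have hθe : θ = d.cover.θG := by
    apply MonoidHom.eq_of_eqOn_top
    rw [← d.cover.hgen]
    apply MonoidHom.eqOn_closure
    rintro _ ⟨r, hr, t, rfl⟩
    apply Subtype.ext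
    apply Units.ext
    have e : d.cover.Y.y r t = D.scGen K r t := rfl
    rw [e, hθ r t hr, ← e, Ctx.coe_θG, d.cover.hθ r hr t]
    rfl
  set π := QuotientGroup.mk' (Subgroup.center (GL (Fin n) L)) with hπ
  have hπs : Function.Surjective π := QuotientGroup.mk'_surjective _
  have hπk : π.ker ≤ Subgroup.center (GL (Fin n) L) := by
    rw [hπ, QuotientGroup.ker_mk']
  by_cases hp0 : ringChar K = 0
  · -- characteristic zero: the field is infinite
    haveI : CharP K 0 := by
      have := ringChar.charP K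
      rwa [hp0] at this
    haveI : CharZero K := CharP.charP_to_charZero K
    haveI : Infinite K := inferInstance
    obtain ⟨s, hs⟩ := Infinite.exists_subset_card_eq K 5
    exact univ_lift ⟨s, by omega⟩ D hD π hπs hπk (φ.comp θ)
  · -- characteristic `p`
    set p := ringChar K with hp
    haveI hpp : Fact p.Prime := ⟨(CharP.char_is_prime_or_zero K p).resolve_right hp0⟩
    haveI : CharP K p := ringChar.charP K
    haveI : CharP L p := by
      have := ringChar.charP L
      rwa [hL] at this
    let M := AlgebraicClosure L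
    haveI : CharP M p := charP_of_injective_algebraMap (algebraMap L M).injective p
    let πM := QuotientGroup.mk' (Subgroup.center (GL (Fin n) M))
    let Γ : Subgroup (↥(D.group K) × GL (Fin n) M) :=
      MonoidHom.eqLocus ((iotaP.comp φ).comp (MonoidHom.fst _ _)) (πM.comp (MonoidHom.snd _ _))
    have hΓ : ∀ x : Γ, iotaP (φ x.1.1) = πM x.1.2 := fun x => x.2
    let σ : Γ →* ↥(D.group K) := (MonoidHom.fst _ _).comp Γ.subtype
    have hσ : Function.Surjective σ := by
      intro g
      obtain ⟨A, hA⟩ := hπs (φ g)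
      refine ⟨⟨(g, iotaGL A), ?_⟩, rfl⟩
      show iotaP (φ g) = πM (iotaGL A)
      rw [← hA]
      rfl
    have hker : ∀ z : Γ, z ∈ σ.ker → z.1.1 = 1 ∧ z.1.2 ∈ Subgroup.center (GL (Fin n) M) := by
      intro z hz
      have h1 : z.1.1 = 1 := hz
      refine ⟨h1, ?_⟩
      have h2 := hΓ z
      rw [h1, map_one, map_one] at h2
      have h3 : ((z.1.2 : GL (Fin n) M) : GL (Fin n) M ⧸ Subgroup.center (GL (Fin n) M)) = 1 := h2.symm
      exact (QuotientGroup.eq_one_iff _).mp h3
    have hc : σ.ker ≤ Subgroup.center Γ := by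
      intro z hz
      obtain ⟨h1, h2⟩ := hker z hz
      rw [Subgroup.mem_center_iff]
      intro x
      apply Subtype.ext
      apply Prod.ext
      · show x.1.1 * z.1.1 = z.1.1 * x.1.1
        rw [h1, mul_one, one_mul]
      · exact Subgroup.mem_center_iff.mp h2 x.1.2
    have hroot : ∀ z ∈ σ.ker, ∃ w ∈ σ.ker, w ^ p = z := by
      intro z hz
      obtain ⟨h1, h2⟩ := hker z hz
      obtain ⟨w, hw, hwp⟩ := scalar_root (p := p) hpp.out.pos h2
      have hwm : ((1 : ↥(D.group K)), w) ∈ Γ := by
        show iotaP (φ 1) = πM w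
        rw [map_one, map_one]
        exact ((QuotientGroup.eq_one_iff _).mpr hw).symm
      refine ⟨⟨(1, w), hwm⟩, rfl, ?_⟩
      apply Subtype.ext
      apply Prod.ext
      · show (1 : ↥(D.group K)) ^ p = z.1.1
        rw [h1, one_pow]
      · exact hwp
    have hk : ∀ z ∈ σ.ker, z ^ p = 1 → z = 1 := by
      intro z hz hzp
      obtain ⟨h1, h2⟩ := hker z hz
      have h3 : (z.1.2) ^ p = 1 := congrArg (fun x : Γ => x.1.2) hzp
      have h4 := scalar_tors h2 h3
      apply Subtype.ext
      exact Prod.ext h1 h4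
    obtain ⟨f, hf⟩ := exists_hom_char (p := p) hD d σ hσ hc hroot hk
    let ψb : D.SteinbergCover K →* GL (Fin n) M := (MonoidHom.snd _ _).comp (Γ.subtype.comp f)
    have hψb : ∀ δ, πM (ψb δ) = iotaP (φ (θ δ)) := by
      intro δ
      have h1 := hΓ (f δ)
      have h2 : (f δ).1.1 = θ δ := by
        rw [hθe]
        exact hf δ
      rw [h2] at h1
      exact h1.symm
    -- the values lie in the original group
    have hcen : ∀ δ : D.SteinbergCover K, ∀ A : GL (Fin n) L, π A = φ (θ δ) →
        (iotaGL A)⁻¹ * ψb δ ∈ Subgroup.center (GL (Fin n) M) := by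
      intro δ A hA
      have h1 : πM (ψb δ) = πM (iotaGL A) := by
        rw [hψb, ← hA]
        rfl
      have h2 := QuotientGroup.eq.mp (show ((iotaGL A : GL (Fin n) M) : GL (Fin n) M ⧸ Subgroup.center (GL (Fin n) M)) = (ψb δ : GL (Fin n) M) from h1.symm)
      exact h2
    have hrange : ∀ δ, ψb δ ∈ (iotaGL (n := n) (L := L) (M := M)).range := by
      have hle : commutator (D.SteinbergCover K) ≤ (iotaGL (n := n) (L := L) (M := M)).range.comap ψb := by
        show ⁅(⊤ : Subgroup (D.SteinbergCover K)), ⊤⁆ ≤ _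
        refine Subgroup.commutator_le.mpr ?_
        intro a _ b _
        obtain ⟨A, hA⟩ := hπs (φ (θ a))
        obtain ⟨B, hB⟩ := hπs (φ (θ b))
        have h1 := hcen a A hA
        have h2 := hcen b B hB
        refine ⟨⁅A, B⁆, ?_⟩
        show iotaGL ⁅A, B⁆ = ψb ⁅a, b⁆
        rw [map_commutatorElement, map_commutatorElement]
        have e1 : ψb a = iotaGL A * ((iotaGL A)⁻¹ * ψb a) := by group
        have e2 : ψb b = iotaGL B * ((iotaGL B)⁻¹ * ψb b) := by group
        rw [e1, e2]
        have h3 : cm (iotaGL A * ((iotaGL A)⁻¹ * ψb a)) (iotaGL B * ((iotaGL B)⁻¹ * ψb b)) =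
            cm (iotaGL A) (iotaGL B) := by
          rw [cm_mul_central_left h1, cm_mul_central_right h2]
        exact h3.symm
      intro δ
      exact hle (by rw [hperf]; trivial)
    let ψ : D.SteinbergCover K →* GL (Fin n) L :=
      ((MonoidHom.ofInjective (iotaGL_inj (n := n) (L := L) (M := M))).symm.toMonoidHom).comp
        (ψb.codRestrict _ hrange)
    have hψ : ∀ δ, iotaGL (ψ δ) = ψb δ := by
      intro δ
      have h1 : MonoidHom.ofInjective (iotaGL_inj (n := n) (L := L) (M := M)) (ψ δ) = ψb.codRestrict _ hrange δ :=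
        (MonoidHom.ofInjective (iotaGL_inj (n := n) (L := L) (M := M))).apply_symm_apply _
      exact congrArg Subtype.val h1
    have hmain : π.comp ψ = φ.comp θ := by
      apply MonoidHom.ext
      intro δ
      obtain ⟨A, hA⟩ := hπs (φ (θ δ))
      have h1 := hcen δ A hA
      rw [← hψ δ, ← map_inv, ← map_mul] at h1
      have h2 := center_of_iota h1
      show π (ψ δ) = φ (θ δ)
      rw [← hA]
      exact (QuotientGroup.eq.mpr h2).symm
    exact ⟨ψ, hmain, fun ψ' h' => lift_eq_of_perfect hperf π hπk _ _ (h'.trans hmain.symm)⟩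

end Cfsg.Agent.Lib.Steinberg.Gen
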