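import Cfsg.Agent.Lib.Steinberg.Gen.Univ

/-!
# Central extensions with kernel uniquely divisible by the characteristic

If the kernel of a central extension of a Chevalley group over a field of characteristic `p` is uniquely
`p`-divisible, every root element has a unique lift of order dividing `p`.  These lifts satisfy the relations of
Steinberg, because the group they generate for the positive roots consists of `p`-power torsion elements.  So the
group presented by (R1), (R2) lifts to the extension.  There are no exceptions for small fields.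
-/

set_option autoImplicit false
set_option linter.unusedSectionVars false

namespace Cfsg.Agent.Lib.Steinberg.Gen

open Cfsg Cfsg.Lie Cfsg.Agent.Lib.ChevBN.Table Cfsg.Agent.Lib.ChevBN.Rel Cfsg.Agent.Lib.ChevBN.Torus
open Cfsg.Agent.Lib.ChevBN.Collect
open Cfsg.Agent.Lib.Sporadic.Stem Cfsg.Agent.Lib.Steinberg.Lift

variable {D : ChevalleyDatum} {K : Type*} [Field K] {η : ℕ → ℕ → ℤ} {Δ Γ : Type*} [Group Δ] [Group Γ]

section Tors

variable {σ : Γ →* ↥(D.group K)} {p : ℕ}

theorem eq_one_of_pow_p_pow (hk : ∀ z ∈ σ.ker, z ^ p = 1 → z = 1) {z : Γ} (hz : z ∈ σ.ker) (n : ℕ)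
    (h : z ^ (p ^ n) = 1) : z = 1 := by
  induction n with
  | zero => simpa using h
  | succ n ih =>
    apply ih
    apply hk _ (Subgroup.pow_mem _ hz _)
    rw [← pow_mul, ← pow_succ]
    exact h

theorem mul_central_pow {a z : Γ} (hz : z ∈ Subgroup.center Γ) (n : ℕ) : (a * z) ^ n = a ^ n * z ^ n :=
  Commute.mul_pow (Subgroup.mem_center_iff.mp hz a) n

namespace LD

variable {C : Ctx D K η Δ} (T : LD C σ)

theorem Y_pow {r : ℕ} (hr : r < D.nroots) (t : K) (n : ℕ) : (T.Y r t) ^ n = T.Y r ((n : K) * t) := by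
  induction n with
  | zero => simp [T.y_zero hr]
  | succ n ih =>
    rw [pow_succ, ih, T.add r hr]
    congr 1
    push_cast
    ring

theorem Y_pow_p [CharP K p] {r : ℕ} (hr : r < D.nroots) (t : K) : (T.Y r t) ^ p = 1 := by
  rw [T.Y_pow hr, CharP.cast_eq_zero, zero_mul, T.y_zero hr]

/-- The relations and the torsion. -/
theorem good_tors [CharP K p] (hc : σ.ker ≤ Subgroup.center Γ) (hk : ∀ z ∈ σ.ker, z ^ p = 1 → z = 1) :
    ∀ (d j : ℕ), D.nroots - j = d →
      (∀ k l, D.IsPosRoot k → D.IsPosRoot l → j ≤ k → k < l → T.Good k l) ∧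
        ∀ g ∈ T.Qs j, ∃ n, g ^ (p ^ n) = 1 := by
  intro d
  induction d with
  | zero =>
    intro j hj
    refine ⟨fun k l hk' _ hjk _ => ?_, fun g hg => ?_⟩
    · have := hk'.1
      omega
    · have hbot : T.Qs j = ⊥ := by
        rw [Qs, Subgroup.closure_eq_bot_iff]
        rintro _ ⟨k, τ, hk', hjk, rfl⟩
        have := hk'.1
        omega
      rw [hbot, Subgroup.mem_bot] at hg
      exact ⟨0, by rw [hg, one_pow]⟩
  | succ d ih =>
    intro j hj
    obtain ⟨ih1, ih2⟩ := ih (j + 1) (by omega)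
    by_cases hjp : D.IsPosRoot j
    · have hgood : ∀ l, D.IsPosRoot l → j < l → T.Good j l := by
        intro l hl hjl t u
        have hne : j ≠ l := by omega
        have hk' : ∀ c ∈ D.commTerms j l, c.1 < D.nroots :=
          fun c hc' => (C.hT.comm_keys j l hjp hl hne c hc').2.2.1.1
        have hn : l ≠ D.neg j := C.hT.pos_ne_neg hl (C.hT.neg_of_pos hjp)
        have hσL := T.σ_L hjp.1 hl.1 hne.symm hn hk' t u
        have hW := T.Wd_mem hjp hl hne t u
        set y := T.Y j t with hy
        set yl := T.Y l u with hyl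
        set e := y⁻¹ * yl * y with he
        set q := yl * T.Wd j l t u with hq
        have hqm : q ∈ T.Qs (j + 1) :=
          Subgroup.mul_mem _ (T.Y_mem_Qs hl (by omega) u) (T.Qs_anti (by omega) hW)
        obtain ⟨n, hqn⟩ := ih2 q hqm
        have hL : T.L j l t u = yl⁻¹ * e := by
          simp only [L, he, ← hy, ← hyl]
          group
        have hσe : σ e = σ q := by
          have e1 : e = yl * T.L j l t u := by rw [hL]; group
          rw [e1, map_mul, hσL, hq, map_mul]
        set z := q⁻¹ * e with hz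
        have hzk : z ∈ σ.ker := by
          rw [MonoidHom.mem_ker, hz, map_mul, map_inv, hσe, inv_mul_cancel]
        have hez : e = q * z := by rw [hz]; group
        have hep : e ^ p = 1 := by
          rw [he]
          have e2 : y⁻¹ * yl * y = y⁻¹ * yl * (y⁻¹)⁻¹ := by rw [inv_inv]
          rw [e2, conj_pow, hyl, T.Y_pow_p hl.1]
          group
        have hz1 : z = 1 := by
          apply eq_one_of_pow_p_pow hk hzk (n + 1)
          have e3 : e ^ (p ^ (n + 1)) = (q * z) ^ (p ^ (n + 1)) := by rw [← hez]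
          rw [mul_central_pow (hc hzk)] at e3
          have e4 : e ^ (p ^ (n + 1)) = 1 := by
            rw [pow_succ', pow_mul, hep, one_pow]
          have e5 : q ^ (p ^ (n + 1)) = 1 := by
            rw [pow_succ, pow_mul, hqn, one_pow]
          rw [e4, e5, one_mul] at e3
          exact e3.symm
        have hLW : T.L j l t u = T.Wd j l t u := by
          rw [hL, hez, hz1, mul_one, hq]
          group
        rw [hLW]
        exact hW
      refine ⟨fun k l hk' hl hjk hkl => ?_, fun g hg => ?_⟩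
      · rcases Nat.eq_or_lt_of_le hjk with rfl | h
        · exact hgood l hl hkl
        · exact ih1 k l hk' hl h hkl
      · obtain ⟨t, g', hg', rfl⟩ := T.Qs_decomp hjp hgood hg
        have key : ∀ n : ℕ, ∃ q ∈ T.Qs (j + 1), (T.Y j t * g') ^ n = (T.Y j t) ^ n * q := by
          intro n
          induction n with
          | zero => exact ⟨1, Subgroup.one_mem _, by simp⟩
          | succ n ihn =>
            obtain ⟨q, hq, e⟩ := ihn
            refine ⟨(T.Y j t)⁻¹ * q * T.Y j t * g', Subgroup.mul_mem _ (T.norm hgood t hq) hg', ?_⟩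
            rw [pow_succ, e, pow_succ]
            group
        obtain ⟨q, hq, e⟩ := key p
        rw [T.Y_pow_p hjp.1, one_mul] at e
        obtain ⟨n, hn⟩ := ih2 q hq
        exact ⟨n + 1, by rw [pow_succ', pow_mul, e, hn]⟩
    · refine ⟨fun k l hk' hl hjk hkl => ?_, fun g hg => ?_⟩
      · refine ih1 k l hk' hl ?_ hkl
        rcases Nat.eq_or_lt_of_le hjk with rfl | h
        · exact absurd hk' hjp
        · exact h
      · have hle : T.Qs j ≤ T.Qs (j + 1) := by
          apply Subgroup.closure_mono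
          rintro _ ⟨k, τ, hk', hjk, rfl⟩
          refine ⟨k, τ, hk', ?_, rfl⟩
          rcases Nat.eq_or_lt_of_le hjk with rfl | h
          · exact absurd hk' hjp
          · exact h
        exact ih2 g (hle hg)

end LD

/-- The lifts of order dividing `p`. -/
theorem exists_LD_tors [CharP K p] (C : Ctx D K η Δ) (hσ : Function.Surjective σ)
    (hc : σ.ker ≤ Subgroup.center Γ) (hroot : ∀ z ∈ σ.ker, ∃ w ∈ σ.ker, w ^ p = z)
    (hk : ∀ z ∈ σ.ker, z ^ p = 1 → z = 1) : Nonempty (LD C σ) := by
  classical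
  have hZp : ∀ r < D.nroots, ∀ t, (C.Zf.y r t) ^ p = 1 := by
    intro r hr t
    have key : ∀ n : ℕ, (C.Zf.y r t) ^ n = C.Zf.y r ((n : K) * t) := by
      intro n
      induction n with
      | zero => simp [C.Zf.y_zero hr]
      | succ n ih =>
        rw [pow_succ, ih, C.Zf.add r hr]
        congr 1
        push_cast
        ring
    rw [key, CharP.cast_eq_zero, zero_mul, C.Zf.y_zero hr]
  have hex : ∀ r, r < D.nroots → ∀ t, ∃ a, σ a = C.Zf.y r t ∧ a ^ p = 1 := by
    intro r hr t
    obtain ⟨e, he⟩ := hσ (C.Zf.y r t)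
    have h1 : e ^ p ∈ σ.ker := by
      rw [MonoidHom.mem_ker, map_pow, he, hZp r hr]
    obtain ⟨w, hw, hwp⟩ := hroot _ h1
    have hwi : w⁻¹ ∈ σ.ker := Subgroup.inv_mem _ hw
    refine ⟨e * w⁻¹, by rw [map_mul, map_inv, MonoidHom.mem_ker.mp hw, he]; simp, ?_⟩
    rw [mul_central_pow (hc hwi), inv_pow, hwp, mul_inv_cancel]
  have huniq : ∀ a b : Γ, σ a = σ b → a ^ p = 1 → b ^ p = 1 → a = b := by
    intro a b hab ha hb
    have hz : a⁻¹ * b ∈ σ.ker := by
      rw [MonoidHom.mem_ker, map_mul, map_inv, hab, inv_mul_cancel]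
    have e : b = a * (a⁻¹ * b) := by group
    have e1 : (a⁻¹ * b) ^ p = 1 := by
      have e2 : b ^ p = (a * (a⁻¹ * b)) ^ p := by rw [← e]
      rw [mul_central_pow (hc hz), ha, hb, one_mul] at e2
      exact e2.symm
    have e3 := hk _ hz e1
    rw [e, e3, mul_one]
  have hcm : ∀ r < D.nroots, ∀ (t u : K) (a b : Γ), σ a = C.Zf.y r t → σ b = C.Zf.y r u → a ^ p = 1 →
      a * b = b * a := by
    intro r hr t u a b ha hb hap
    have hcomm : σ a * σ b = σ b * σ a := by
      rw [ha, hb, C.Zf.add r hr, C.Zf.add r hr, add_comm]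
    set c := a * b * a⁻¹ * b⁻¹ with hcd
    have hck : c ∈ σ.ker := by
      rw [MonoidHom.mem_ker, hcd]
      simp only [map_mul, map_inv]
      rw [hcomm]
      group
    have hcc := hc hck
    have hn : ∀ n : ℕ, a ^ n * b * (a ^ n)⁻¹ = c ^ n * b := by
      intro n
      induction n with
      | zero => simp
      | succ n ih =>
        have e1 : a * b * a⁻¹ = c * b := by rw [hcd]; group
        have e2 : a ^ (n + 1) * b * (a ^ (n + 1))⁻¹ = a * (a ^ n * b * (a ^ n)⁻¹) * a⁻¹ := by
          rw [pow_succ']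
          group
        rw [e2, ih]
        have e3 : a * (c ^ n * b) * a⁻¹ = (a * c ^ n * a⁻¹) * (a * b * a⁻¹) := by group
        rw [e3, e1]
        have e4 : a * c ^ n * a⁻¹ = c ^ n := by
          rw [Subgroup.mem_center_iff.mp (Subgroup.pow_mem _ hcc n) a]
          group
        rw [e4, pow_succ]
        group
    have h1 := hn p
    rw [hap] at h1
    have hcp : c ^ p = 1 := by
      have : b = c ^ p * b := by simpa using h1
      exact (mul_eq_right.mp this.symm)
    have hc1 := hk c hck hcp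
    have : a * b * a⁻¹ = b := by
      have e : a * b * a⁻¹ = c * b := by rw [hcd]; group
      rw [e, hc1, one_mul]
    exact mul_inv_eq_iff_eq_mul.mp this
  have hex' : ∀ r t, ∃ a : Γ, (r < D.nroots → σ a = C.Zf.y r t ∧ a ^ p = 1) ∧ (¬ r < D.nroots → a = 1) := by
    intro r t
    by_cases hr : r < D.nroots
    · obtain ⟨a, ha⟩ := hex r hr t
      exact ⟨a, fun _ => ha, fun h => absurd hr h⟩
    · exact ⟨1, fun h => absurd h hr, fun _ => rfl⟩
  choose Y hY hY' using hex'
  refine ⟨⟨Y, fun r hr t => hY' r t hr, ?_, fun r hr τ => (hY r τ hr).1, ?_, ?_⟩⟩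
  · intro r hr a b
    apply huniq
    · rw [map_mul, (hY r a hr).1, (hY r b hr).1, (hY r _ hr).1, C.Zf.add r hr]
    · have hcm1 := hcm r hr a b (Y r a) (Y r b) (hY r a hr).1 (hY r b hr).1 (hY r a hr).2
      have : Commute (Y r a) (Y r b) := hcm1
      rw [this.mul_pow, (hY r a hr).2, (hY r b hr).2, one_mul]
    · exact (hY r _ hr).2
  · intro r hr g κ _ hκ τ
    apply huniq
    · rw [map_mul, map_mul, map_inv, (hY r τ hr).1, (hY r _ hr).1]
      exact hκ τ
    · rw [conj_pow, (hY r τ hr).2]
      group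
    · exact (hY r _ hr).2
  · intro i hi r hr g hg τ
    have hw := C.hT.w_lt i hi r hr
    apply huniq
    · rw [map_mul, map_mul, map_inv, (hY r τ hr).1, (hY _ _ hw).1, hg]
      exact C.nn_conj hi hr τ
    · rw [conj_pow, (hY r τ hr).2]
      group
    · exact (hY _ _ hw).2

/-- The lift, given the words making pairs of roots positive. -/
theorem exists_hom_tors [CharP K p] (d : Dat D K η)
    (hword : ∀ r s, r < D.nroots → s < D.nroots → s ≠ r → s ≠ D.neg r → ∃ l : List ℕ, (∀ i ∈ l, i < D.rank) ∧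
      D.IsPosRoot (LD.Fw D l r) ∧ D.IsPosRoot (LD.Fw D l s) ∧
      ∀ c ∈ D.commTerms r s, c.1 < D.nroots ∧ D.IsPosRoot (LD.Fw D l c.1))
    (hσ : Function.Surjective σ)
    (hc : σ.ker ≤ Subgroup.center Γ) (hroot : ∀ z ∈ σ.ker, ∃ w ∈ σ.ker, w ^ p = z)
    (hk : ∀ z ∈ σ.ker, z ^ p = 1 → z = 1) :
    ∃ φ : D.SteinbergCover K →* Γ, ∀ g, σ (φ g) = d.cover.θG g := by
  obtain ⟨T⟩ := exists_LD_tors (p := p) d.cover hσ hc hroot hk
  refine exists_hom_of_LD d T hσ hc (fun m s hm hs hms => Or.inr ?_) hword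
  exact (T.good_tors hc hk _ m rfl).1 m s hm hs le_rfl hms

/-- The lift for all the types, with no exception. -/
theorem exists_hom_char {D : ChevalleyDatum} (hD : D ∈ [chevG2, chevB2, chevD4, chevF4, chevE6, chevE7, chevE8])
    [CharP K p] (d : Dat D K η) (σ : Γ →* ↥(D.group K)) (hσ : Function.Surjective σ)
    (hc : σ.ker ≤ Subgroup.center Γ) (hroot : ∀ z ∈ σ.ker, ∃ w ∈ σ.ker, w ^ p = z)
    (hk : ∀ z ∈ σ.ker, z ^ p = 1 → z = 1) :
    ∃ φ : D.SteinbergCover K →* Γ, ∀ g, σ (φ g) = d.cover.θG g := by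
  simp only [List.mem_cons, List.not_mem_nil, or_false] at hD
  rcases hD with rfl | rfl | rfl | rfl | rfl | rfl | rfl
  · exact exists_hom_tors d (wordChk_sound TData.G2.hn TData.G2.c3) hσ hc hroot hk
  · exact exists_hom_tors d (wordChk_sound TData.B2.hn TData.B2.c3) hσ hc hroot hk
  · exact exists_hom_tors d (wordChk_sound TData.D4.hn TData.D4.c3) hσ hc hroot hk
  · exact exists_hom_tors d (wordChk_sound TData.F4.hn TData.F4.c3) hσ hc hroot hk
  · exact exists_hom PureData.E6.tbl d σ hσ hc (fun s hs => by simp at hs)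
  · exact exists_hom PureData.E7.tbl d σ hσ hc (fun s hs => by simp at hs)
  · exact exists_hom PureData.E8.tbl d σ hσ hc (fun s hs => by simp at hs)

end Tors

end Cfsg.Agent.Lib.Steinberg.Gen
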