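import Cfsg.Agent.Lib.Steinberg.Gen.MultD4
import Cfsg.Agent.Lib.Steinberg.Gen.MultF4
import Cfsg.Agent.Lib.Steinberg.Gen.MultE67
import Cfsg.Agent.Lib.Steinberg.Gen.MultE8

/-!
# The universality of the group presented by (R1), (R2)
-/

set_option autoImplicit false
set_option linter.unusedSectionVars false

namespace Cfsg.Agent.Lib.Steinberg.Gen

open Cfsg Cfsg.Lie Cfsg.Agent.Lib.ChevBN.Table Cfsg.Agent.Lib.ChevBN.Rel Cfsg.Agent.Lib.ChevBN.Torus
open Cfsg.Agent.Lib.Sporadic.Stem Cfsg.Agent.Lib.Steinberg.Lift Cfsg.Agent.Lib.Steinberg.Cover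
open scoped commutatorElement

universe v w x y

/-- Lifting of a homomorphism from a perfect group through a central extension, given the lifting through the central
extensions of a quotient of the group by a central subgroup. -/
theorem lift_unique {Δ : Type w} {G : Type x} {G₁ : Type y} {E : Type v} [Group Δ] [Group G] [Group G₁] [Group E]
    (θ : Δ →* G) (hθs : Function.Surjective θ) (hp : commutator Δ = ⊤) (hθ : θ.ker ≤ Subgroup.center Δ)
    (π₁ : E →* G₁) (hπ : Function.Surjective π₁) (hc : π₁.ker ≤ Subgroup.center E) (σ : Δ →* G₁)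
    (hlift : ∀ (Q : Type (max v w)) [Group Q] (s : Q →* G), Function.Surjective s → s.ker ≤ Subgroup.center Q →
      ∃ φ : Δ →* Q, ∀ g, s (φ g) = θ g) :
    ∃! τ : Δ →* E, π₁.comp τ = σ := by
  let P : Subgroup (E × Δ) := MonoidHom.eqLocus (π₁.comp (MonoidHom.fst E Δ)) (σ.comp (MonoidHom.snd E Δ))
  have hP : ∀ p : P, π₁ p.1.1 = σ p.1.2 := fun p => p.2
  let p₂ : P →* Δ := (MonoidHom.snd E Δ).comp P.subtype
  have hs : Function.Surjective p₂ := by
    intro x
    obtain ⟨e, he⟩ := hπ (σ x)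
    exact ⟨⟨(e, x), he⟩, rfl⟩
  have hk : p₂.ker ≤ Subgroup.center P := by
    intro z hz
    have h1 : z.1.2 = 1 := hz
    have h2 : z.1.1 ∈ π₁.ker := by
      rw [MonoidHom.mem_ker, hP, h1, map_one]
    rw [Subgroup.mem_center_iff]
    intro p
    apply Subtype.ext
    apply Prod.ext
    · exact Subgroup.mem_center_iff.mp (hc h2) p.1.1
    · show p.1.2 * z.1.2 = z.1.2 * p.1.2
      rw [h1, mul_one, one_mul]
  let Q : Subgroup P := commutator P
  let f : Q →* Δ := p₂.comp Q.subtype
  have hmap : ∀ x : Δ, ∃ q : Q, f q = x := by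
    intro x
    have h1 : x ∈ (commutator P).map p₂ := by
      rw [map_commutator_eq_top p₂ hs hp]
      trivial
    obtain ⟨q, hq, hq2⟩ := h1
    exact ⟨⟨q, hq⟩, hq2⟩
  have hkQ : f.ker ≤ Subgroup.center Q := by
    intro z hz
    rw [Subgroup.mem_center_iff]
    intro q
    apply Subtype.ext
    exact Subgroup.mem_center_iff.mp (hk (show (z : P) ∈ p₂.ker from hz)) (q : P)
  have hQp : commutator Q = ⊤ := by
    have h1 : commutator P ≤ (commutator Q).map Q.subtype := by
      show ⁅(⊤ : Subgroup P), ⊤⁆ ≤ _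
      refine Subgroup.commutator_le.mpr ?_
      intro a _ b _
      obtain ⟨a', ha'⟩ := hmap (p₂ a)
      obtain ⟨b', hb'⟩ := hmap (p₂ b)
      have ea : (a' : P)⁻¹ * a ∈ Subgroup.center P := by
        apply hk
        rw [MonoidHom.mem_ker, map_mul, map_inv]
        have : p₂ (a' : P) = p₂ a := ha'
        rw [this, inv_mul_cancel]
      have eb : (b' : P)⁻¹ * b ∈ Subgroup.center P := by
        apply hk
        rw [MonoidHom.mem_ker, map_mul, map_inv]
        have : p₂ (b' : P) = p₂ b := hb'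
        rw [this, inv_mul_cancel]
      have e : ⁅a, b⁆ = ⁅(a' : P), (b' : P)⁆ := by
        have e1 : cm ((a' : P) * ((a' : P)⁻¹ * a)) ((b' : P) * ((b' : P)⁻¹ * b)) = cm (a' : P) (b' : P) := by
          rw [cm_mul_central_left ea, cm_mul_central_right eb]
        rw [mul_inv_cancel_left, mul_inv_cancel_left] at e1
        simp only [cm] at e1
        simpa only [commutatorElement_def] using e1
      rw [e]
      refine ⟨⁅a', b'⁆, ?_, rfl⟩
      exact Subgroup.commutator_mem_commutator (Subgroup.mem_top _) (Subgroup.mem_top _)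
    rw [eq_top_iff]
    intro q _
    obtain ⟨q', hq', e⟩ := h1 q.2
    have : q' = q := Subtype.ext e
    rwa [← this]
  have hstem : IsStemExtension f := ⟨fun x => hmap x, hkQ, by rw [hQp]; exact le_top⟩
  obtain ⟨φ, hφ⟩ := hlift Q (θ.comp f) (hθs.comp hstem.1) (central_comp f θ hstem hp hθ)
  have hid : ∀ g, f (φ g) = g := hom_eq_of_perfect θ hp hθ (f.comp φ) hφ
  refine ⟨(MonoidHom.fst E Δ).comp (P.subtype.comp (Q.subtype.comp φ)), ?_, ?_⟩
  · ext g
    show π₁ ((φ g : P) : E × Δ).1 = σ g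
    rw [hP]
    congr 1
    exact hid g
  · intro τ' hτ'
    set τ := (MonoidHom.fst E Δ).comp (P.subtype.comp (Q.subtype.comp φ)) with hτ
    have hτ0 : π₁.comp τ = σ := by
      ext g
      show π₁ ((φ g : P) : E × Δ).1 = σ g
      rw [hP]
      congr 1
      exact hid g
    have h2 : commutator Δ ≤ MonoidHom.eqLocus τ' τ := by
      show ⁅(⊤ : Subgroup Δ), ⊤⁆ ≤ _
      refine Subgroup.commutator_le.mpr ?_
      intro a _ b _
      show τ' ⁅a, b⁆ = τ ⁅a, b⁆
      rw [map_commutatorElement, map_commutatorElement]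
      have e : ∀ x, π₁ (τ' x) = π₁ (τ x) := by
        intro x
        have e1 := congrArg (fun ψ : Δ →* G₁ => ψ x) hτ'
        have e2 := congrArg (fun ψ : Δ →* G₁ => ψ x) hτ0
        exact e1.trans e2.symm
      have := cm_eq_of_map_eq π₁ hc (e a) (e b)
      simpa only [cm, commutatorElement_def] using this
    ext g
    exact h2 (by rw [hp]; trivial)

/-- An element with non-trivial small powers. -/
theorem exists_κ6 {K : Type*} [Field K] (hK : ∃ s : Finset K, 4 < s.card) :
    ∃ κ : K, κ ≠ 0 ∧ ∀ e ∈ ([1, -1, 2, -2, 3, -3] : List ℤ), κ ^ e ≠ 1 := by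
  classical
  rcases finite_or_infinite K with h | h
  · exact exists_κ_of_card hK
  · let p : Polynomial K := Polynomial.X * (Polynomial.X ^ 2 - Polynomial.C 1) * (Polynomial.X ^ 3 - Polynomial.C 1)
    have hp : p ≠ 0 :=
      mul_ne_zero (mul_ne_zero Polynomial.X_ne_zero (Polynomial.X_pow_sub_C_ne_zero (by norm_num) _))
        (Polynomial.X_pow_sub_C_ne_zero (by norm_num) _)
    obtain ⟨κ, hκ⟩ := Infinite.exists_notMem_finset p.roots.toFinset
    have h1 : p.eval κ ≠ 0 := by
      intro h0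
      apply hκ
      rw [Multiset.mem_toFinset, Polynomial.mem_roots hp]
      exact h0
    simp only [p, Polynomial.eval_mul, Polynomial.eval_X, Polynomial.eval_sub, Polynomial.eval_pow,
      Polynomial.eval_C, map_one, Polynomial.eval_one, mul_ne_zero_iff, sub_ne_zero, ne_eq] at h1
    obtain ⟨⟨h0, h2⟩, h3⟩ := h1
    have h1' : κ ≠ 1 := by
      rintro rfl
      simp at h2
    refine ⟨κ, h0, ?_⟩
    intro e he
    simp only [List.mem_cons, List.not_mem_nil, or_false] at he
    rcases he with rfl | rfl | rfl | rfl | rfl | rfl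
    · simpa using h1'
    · simpa [zpow_neg] using h1'
    · exact_mod_cast h2
    · simpa [zpow_neg] using h2
    · exact_mod_cast h3
    · simpa [zpow_neg] using h3

/-- The lifting for all the types, over a field with more than four elements. -/
theorem exists_hom_all {D : ChevalleyDatum} (hD : D ∈ [chevG2, chevB2, chevD4, chevF4, chevE6, chevE7, chevE8])
    {K : Type*} [Field K] (hK : ∃ s : Finset K, 4 < s.card) {η : ℕ → ℕ → ℤ} (d : Dat D K η) {Γ : Type*} [Group Γ]
    (σ : Γ →* ↥(D.group K)) (hσ : Function.Surjective σ) (hc : σ.ker ≤ Subgroup.center Γ) :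
    ∃ φ : D.SteinbergCover K →* Γ, ∀ g, σ (φ g) = d.cover.θG g := by
  obtain ⟨κ, hκ, hE⟩ := exists_κ6 hK
  have ha := exists_a_of_card hK
  have hκ2 : κ ^ 2 ≠ 1 := by
    have := hE 2 (by simp)
    exact_mod_cast this
  have hκ1 : κ ≠ 1 := by
    rintro rfl
    simp at hκ2
  simp only [List.mem_cons, List.not_mem_nil, or_false] at hD
  rcases hD with rfl | rfl | rfl | rfl | rfl | rfl | rfl
  · exact exists_hom_G2 d hκ hE ha σ hσ hc
  · exact exists_hom_B2 d hκ hκ2 (Or.inr ha) σ hσ hc
  · exact exists_hom_D4 d hκ hκ2 σ hσ hc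
  · exact exists_hom_F4 d ⟨κ, hκ, hκ1⟩ σ hσ hc
  · exact exists_hom PureData.E6.tbl d σ hσ hc (fun s hs => by simp at hs)
  · exact exists_hom PureData.E7.tbl d σ hσ hc (fun s hs => by simp at hs)
  · exact exists_hom PureData.E8.tbl d σ hσ hc (fun s hs => by simp at hs)

universe u

/-- The universality of the group presented by (R1), (R2). -/
theorem univ_lift {K : Type u} [Field K] (hK : ∃ s : Finset K, 4 < s.card) (D : ChevalleyDatum)
    (hD : D ∈ [chevG2, chevB2, chevD4, chevF4, chevE6, chevE7, chevE8])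
    {G₁ : Type y} {E : Type v} [Group G₁] [Group E] (π₁ : E →* G₁) (hπ : Function.Surjective π₁)
    (hc : π₁.ker ≤ Subgroup.center E) (σ : D.SteinbergCover K →* G₁) :
    ∃! τ : D.SteinbergCover K →* E, π₁.comp τ = σ := by
  obtain ⟨η, hη, hd⟩ := exists_dat_eta.{u} D hD
  have d := hd K
  have h2 : ∃ a : K, a ≠ 0 ∧ a ≠ 1 := by
    obtain ⟨κ, hκ, hE⟩ := exists_κ6 hK
    refine ⟨κ, hκ, ?_⟩
    have := hE 1 (by simp)
    simpa using this
  have hp : commutator (D.SteinbergCover K) = ⊤ := perfect_ctx hD (fun _ => h2) d.cover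
  exact lift_unique d.cover.θG d.cover.θG_surj hp d.cover.ker_le_center π₁ hπ hc σ
    (fun Q _ s hs hk => exists_hom_all hD hK d s hs hk)

end Cfsg.Agent.Lib.Steinberg.Gen
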